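import Mathlib
import Cfsg.Prelude.Def_OddOrderLocal
import Cfsg.Agent.Lib.Helper35.BG.Basic
import Cfsg.Agent.Lib.Helper35.BG.Hall
import Cfsg.Agent.Lib.Helper35.BG.Compl
import Cfsg.Agent.Lib.Helper67.BG.Basics
import Cfsg.Agent.Lib.Helper67.BG.HallUtil
import Cfsg.Agent.Lib.Helper74.BG.Tools
import Cfsg.Agent.Lib.Helper31.BG.SigmaHall
import Cfsg.Agent.Lib.Helper47.Minimal
import Cfsg.Agent.Lib.Helper27.BG36LemmaCompl
import Cfsg.Agent.Lib.Helper85.BG36LemmaEnd

/-!
General plumbing for the Bender–Glauberman sigma-partition (helper27): conjugation invariance of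
`σ(M)`, index bookkeeping for normal subgroups, complements of `M_σ` as Hall `κ(M)`-subgroups.
-/

set_option autoImplicit false

namespace Cfsg.Agent.Lib.Helper27.BG

open Cfsg Cfsg.Agent.Lib.Helper46 Cfsg.Agent.Lib.Helper35.BG

variable {G : Type*} [Group G]

/-- A relative Sylow `p`-subgroup `P` of `M` with `N_G(P) ≤ M` puts `p` in `σ(M)`. -/
theorem mem_sigma_of_isSylowIn [Finite G] {M P : Subgroup G} {p : ℕ} [Fact p.Prime]
    (hP : IsSylowIn p P M) (hdvd : p ∣ Nat.card M)
    (hN : Subgroup.normalizer (P : Set G) ≤ M) : p ∈ sigma M := by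
  obtain ⟨S, hS⟩ := hP.exists_sylow
  exact ⟨Fact.out, hdvd, S, by rw [hS]; exact hN⟩

theorem sigma_subset_sigma_map_conj [Finite G] (M : Subgroup G) (g : G) :
    sigma M ⊆ sigma (M.map (MulAut.conj g).toMonoidHom) := by
  intro p hp
  obtain ⟨hpp, hdvd, P, hN⟩ := id hp
  have : Fact p.Prime := ⟨hpp⟩
  have hP : IsSylowIn p ((P : Subgroup M).map M.subtype) M := isSylowIn_of_sylow P
  have hP' := sylIn_map_conj hP g
  refine mem_sigma_of_isSylowIn hP' (by rw [card_map_conj]; exact hdvd) ?_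
  rw [normalizer_map_conj]
  exact Subgroup.map_mono hN

/-- `σ` is invariant under conjugation. -/
theorem sigma_map_conj [Finite G] (M : Subgroup G) (g : G) :
    sigma (M.map (MulAut.conj g).toMonoidHom) = sigma M := by
  apply Set.Subset.antisymm
  · have := sigma_subset_sigma_map_conj (M.map (MulAut.conj g).toMonoidHom) g⁻¹
    rw [Cfsg.Agent.Lib.Helper35.BG.map_conj_mul, inv_mul_cancel, Cfsg.Agent.Lib.Helper35.BG.map_conj_one] at this
    exact this
  · exact sigma_subset_sigma_map_conj M g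

/-- For `N ≤ M` normalized by `M` and `H ≤ M`: `|H : H ∩ N|` divides `|M : N|`. -/
theorem relIndex_dvd_relIndex_of_le {N H M : Subgroup G} (hNM : N ≤ M) (hHM : H ≤ M)
    (hnorm : M ≤ Subgroup.normalizer (N : Set G)) : N.relIndex H ∣ N.relIndex M := by
  have : (N.subgroupOf M).Normal := (Subgroup.normal_subgroupOf_iff_le_normalizer hNM).mpr hnorm
  have h1 := Subgroup.relIndex_dvd_index_of_normal (N.subgroupOf M) (H.subgroupOf M)
  rwa [Subgroup.relIndex_subgroupOf hHM] at h1

/-- A subgroup of `M` of order coprime to the index of the normal subgroup `N` of `M` lies in `N`. -/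
theorem le_of_coprime_relIndex [Finite G] {N Y M : Subgroup G} (hNM : N ≤ M)
    (hnorm : M ≤ Subgroup.normalizer (N : Set G)) (hYM : Y ≤ M)
    (hcop : (Nat.card Y).Coprime (N.relIndex M)) : Y ≤ N := by
  have : (N.subgroupOf M).Normal := (Subgroup.normal_subgroupOf_iff_le_normalizer hNM).mpr hnorm
  have hc : Nat.card (Y.subgroupOf M) = Nat.card Y :=
    Nat.card_congr (Subgroup.subgroupOfEquivOfLe hYM).toEquiv
  have h1 := Cfsg.Agent.Lib.Helper31.BG.le_of_coprime_index_normal (N.subgroupOf M)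
    (Y.subgroupOf M) (by rw [hc]; exact hcop)
  intro y hy
  have : (⟨y, hYM hy⟩ : M) ∈ Y.subgroupOf M := by rw [Subgroup.mem_subgroupOf]; exact hy
  have h2 := h1 this
  rw [Subgroup.mem_subgroupOf] at h2
  exact h2

/-- A complement of `M_σ` in `M` is a Hall `κ(M)`-subgroup as soon as every prime divisor of `|M|`
outside `σ(M)` lies in `κ(M)`. -/
theorem isPiHallOf_kappa_of_isComplIn [Finite G] {M E : Subgroup G}
    (hσ : IsPiHallOf (sigma M) (sigmaCore M) M) (hE : IsComplIn E (sigmaCore M) M)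
    (hκ : ∀ p : ℕ, p.Prime → p ∣ Nat.card M → p ∉ sigma M → p ∈ kappa M) :
    IsPiHallOf (kappa M) E M := by
  refine ⟨hE.1, fun p hp hdvd => ?_, fun p hp hpκ hdvd => ?_⟩
  · have h1 : (sigmaCore M).relIndex M = Nat.card E := relIndex_right_of_isComplIn hE
    refine hκ p hp (hdvd.trans (Subgroup.card_dvd_of_le hE.1)) (fun hpσ => ?_)
    exact hσ.2.2 p hp hpσ (by rw [h1]; exact hdvd)
  · have h1 : E.relIndex M = Nat.card (sigmaCore M) := relIndex_left_of_isComplIn hE
    rw [h1] at hdvd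
    exact hpκ.2.2.1 (hσ.2.1 p hp hdvd)

/-- `M` normalizes `O_π(M)`. -/
theorem le_normalizer_piCoreOf (π : Set ℕ) (M : Subgroup G) :
    M ≤ Subgroup.normalizer ((piCoreOf π M : Subgroup G) : Set G) := by
  intro m hm
  rw [Subgroup.mem_normalizer_iff]
  intro x
  have hn : (piCore π M).Normal := inferInstance
  constructor
  · rintro ⟨y, hy, rfl⟩
    exact ⟨⟨m, hm⟩ * y * ⟨m, hm⟩⁻¹, hn.conj_mem y hy ⟨m, hm⟩, rfl⟩
  · rintro ⟨y, hy, hyx⟩
    refine ⟨⟨m, hm⟩⁻¹ * y * ⟨m, hm⟩, ?_, ?_⟩
    · have := hn.conj_mem y hy ⟨m, hm⟩⁻¹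
      simpa using this
    · have h1 : (y : G) = m * x * m⁻¹ := hyx
      show (m⁻¹ * (y : G) * m) = x
      rw [h1]; group

theorem piCoreOf_le (π : Set ℕ) (M : Subgroup G) : piCoreOf π M ≤ M := by
  rintro _ ⟨y, -, rfl⟩
  exact y.2

/-- The subgroup generated by an element of prime order `p` has `p` elements. -/
theorem card_zpowers_of_orderOf {x : G} {p : ℕ} (hx : orderOf x = p) :
    Nat.card (Subgroup.zpowers x) = p := by
  rw [Nat.card_zpowers, hx]

/-- A subgroup of prime order is generated by an element of that order. -/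
theorem exists_generator_of_card_prime [Finite G] {X : Subgroup G} {p : ℕ} (hp : p.Prime)
    (hX : Nat.card X = p) : ∃ x : G, x ∈ X ∧ orderOf x = p ∧ X = Subgroup.zpowers x := by
  have : Fact p.Prime := ⟨hp⟩
  obtain ⟨x, hx⟩ := exists_prime_orderOf_dvd_card' (G := X) p (by rw [hX])
  have hx' : orderOf (x : G) = p := by rw [Subgroup.orderOf_coe, hx]
  refine ⟨x, x.2, hx', ?_⟩
  symm
  apply Subgroup.eq_of_le_of_card_ge
  · rw [Subgroup.zpowers_le]; exact x.2
  · rw [hX, card_zpowers_of_orderOf hx']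

/-- A nontrivial finite subgroup contains a subgroup of prime order. -/
theorem exists_prime_card_le [Finite G] {E : Subgroup G} (hE : E ≠ ⊥) :
    ∃ (X : Subgroup G) (p : ℕ), p.Prime ∧ Nat.card X = p ∧ X ≤ E := by
  have h1 : Nat.card E ≠ 1 := fun h => hE (Subgroup.eq_bot_of_card_eq E h)
  obtain ⟨p, hp, hdvd⟩ := Nat.exists_prime_and_dvd h1
  have : Fact p.Prime := ⟨hp⟩
  obtain ⟨x, hx⟩ := exists_prime_orderOf_dvd_card' (G := E) p hdvd
  have hx' : orderOf (x : G) = p := by rw [Subgroup.orderOf_coe, hx]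
  refine ⟨Subgroup.zpowers (x : G), p, hp, card_zpowers_of_orderOf hx', ?_⟩
  rw [Subgroup.zpowers_le]; exact x.2

/-- The centralizer of a generator of a cyclic subgroup centralizes the subgroup. -/
theorem mem_centralizer_zpowers {x c : G} (h : c * x = x * c) :
    c ∈ Subgroup.centralizer ((Subgroup.zpowers x : Subgroup G) : Set G) := by
  rw [Subgroup.mem_centralizer_iff]
  intro y hy
  obtain ⟨k, rfl⟩ := Subgroup.mem_zpowers_iff.mp hy
  have hc : Commute x c := h.symm
  exact (hc.zpow_left k).eq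

/-- If `A` normalizes `B` then `|A ⊔ B|` divides `|A| |B|`. -/
theorem card_sup_dvd_mul [Finite G] {A B : Subgroup G}
    (h : A ≤ Subgroup.normalizer (B : Set G)) :
    Nat.card (A ⊔ B : Subgroup G) ∣ Nat.card A * Nat.card B := by
  have h1 := Cfsg.Agent.Lib.Helper27.BG36.card_sup_mul_card_inf_nz B A h
  rw [sup_comm, mul_comm (Nat.card A)]
  exact Dvd.intro _ h1

end Cfsg.Agent.Lib.Helper27.BG
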