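import Mathlib
import Cfsg.Statements.S1350
import Cfsg.Statements.S1375
import Cfsg.Statements.S1378
import Cfsg.Statements.S1433
import Cfsg.Agent.Lib.Helper27.BG.SigmaBasic

/-!
Bender–Glauberman: the cosets `x R(x)`, `x ∈ M_σ^#`, are pairwise disjoint (statement S1433),
derived from S1350 (`M_σ` is a Hall subgroup), S1375 (structure of `C_G(x)`) and S1378 (the
sigma-partition), which are taken as hypotheses.
-/

set_option autoImplicit false

namespace Cfsg.Agent.Lib.Helper27.BG

open Cfsg Cfsg.Agent.Lib.Helper46 Cfsg.Agent.Lib.Helper35.BG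

section

variable {G : Type*} [Group G] [Finite G]

/-- For commuting elements of coprime orders, the first factor is a power of the product. -/
theorem mem_zpowers_mul_of_coprime {a b : G} (hc : Commute a b)
    (hcop : (orderOf a).Coprime (orderOf b)) : a ∈ Subgroup.zpowers (a * b) := by
  have h1 : (a * b) ^ orderOf b = a ^ orderOf b := by
    rw [hc.mul_pow, pow_orderOf_eq_one, mul_one]
  have h2 : a ^ orderOf b ∈ Subgroup.zpowers (a * b) := by
    rw [← h1]; exact Subgroup.npow_mem_zpowers _ _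
  have h3 : orderOf (a ^ orderOf b) = orderOf a := Nat.Coprime.orderOf_pow hcop
  have h4 : Subgroup.zpowers (a ^ orderOf b) = Subgroup.zpowers a := by
    apply Subgroup.eq_of_le_of_card_ge
    · rw [Subgroup.zpowers_le]; exact Subgroup.npow_mem_zpowers _ _
    · rw [Nat.card_zpowers, Nat.card_zpowers, h3]
  have h5 : Subgroup.zpowers a ≤ Subgroup.zpowers (a * b) := by
    rw [← h4, Subgroup.zpowers_le]; exact h2
  exact h5 (Subgroup.mem_zpowers a)

theorem mem_zpowers_mul_of_coprime' {a b : G} (hc : Commute a b)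
    (hcop : (orderOf a).Coprime (orderOf b)) : b ∈ Subgroup.zpowers (a * b) := by
  have := mem_zpowers_mul_of_coprime hc.symm hcop.symm
  rwa [hc.symm.eq] at this

/-- Two numbers whose prime divisors lie in disjoint sets are coprime. -/
theorem coprime_of_disjoint_primes {m n : ℕ} {A B : Set ℕ}
    (hm : ∀ p : ℕ, p.Prime → p ∣ m → p ∈ A) (hn : ∀ p : ℕ, p.Prime → p ∣ n → p ∈ B)
    (hAB : A ∩ B = ∅) : m.Coprime n := by
  apply Nat.coprime_of_dvd
  intro p hp h1 h2
  have : p ∈ A ∩ B := ⟨hm p hp h1, hn p hp h2⟩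
  rw [hAB] at this
  exact this

omit [Finite G] in
/-- An element whose order has all its prime divisors in two disjoint sets is trivial. -/
theorem eq_one_of_disjoint_primes {w : G} {A B : Set ℕ}
    (hA : ∀ p : ℕ, p.Prime → p ∣ orderOf w → p ∈ A)
    (hB : ∀ p : ℕ, p.Prime → p ∣ orderOf w → p ∈ B) (hAB : A ∩ B = ∅) : w = 1 := by
  by_contra hw
  have h1 : orderOf w ≠ 1 := fun h => hw (orderOf_eq_one_iff.mp h)
  obtain ⟨p, hp, hdvd⟩ := Nat.exists_prime_and_dvd h1
  have : p ∈ A ∩ B := ⟨hA p hp hdvd, hB p hp hdvd⟩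
  rw [hAB] at this
  exact this

omit [Finite G] in
/-- Prime divisors of the order of `a⁻¹ * b` for commuting `a`, `b`. -/
theorem prime_dvd_orderOf_inv_mul {a b : G} (hc : Commute a b) {p : ℕ} (hp : p.Prime)
    (h : p ∣ orderOf (a⁻¹ * b)) : p ∣ orderOf a ∨ p ∣ orderOf b := by
  have hc' : Commute a⁻¹ b := hc.inv_left
  have h1 : orderOf (a⁻¹ * b) ∣ Nat.lcm (orderOf a⁻¹) (orderOf b) := hc'.orderOf_mul_dvd_lcm
  rw [orderOf_inv] at h1
  have h2 : p ∣ orderOf a * orderOf b := (h.trans h1).trans (Nat.lcm_dvd_mul _ _)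
  exact (Nat.Prime.dvd_mul hp).mp h2

omit [Finite G] in
theorem prime_dvd_orderOf_mul_inv {a b : G} (hc : Commute a b) {p : ℕ} (hp : p.Prime)
    (h : p ∣ orderOf (a * b⁻¹)) : p ∣ orderOf a ∨ p ∣ orderOf b := by
  have hc' : Commute a b⁻¹ := hc.inv_right
  have h1 : orderOf (a * b⁻¹) ∣ Nat.lcm (orderOf a) (orderOf b⁻¹) := hc'.orderOf_mul_dvd_lcm
  rw [orderOf_inv] at h1
  have h2 : p ∣ orderOf a * orderOf b := (h.trans h1).trans (Nat.lcm_dvd_mul _ _)
  exact (Nat.Prime.dvd_mul hp).mp h2

/-- The prime divisors of the order of an element of `M_σ` lie in `σ(M)`. -/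
theorem prime_mem_sigma_of_mem_sigmaCore {M : Subgroup G} {x : G} (hx : x ∈ sigmaCore M)
    {p : ℕ} (hp : p.Prime) (hdvd : p ∣ orderOf x) : p ∈ sigma M :=
  Cfsg.Agent.Lib.Helper67.BG.sigmaCore_isPi M p hp
    (hdvd.trans (Subgroup.orderOf_dvd_natCard _ hx))

/-- An element of `L` whose order has all prime divisors in `σ(L)` lies in `L_σ`. -/
theorem mem_sigmaCore_of_primes {L : Subgroup G}
    (hHall : IsPiHallOf (sigma L) (sigmaCore L) L) {x : G} (hxL : x ∈ L)
    (hx : ∀ p : ℕ, p.Prime → p ∣ orderOf x → p ∈ sigma L) : x ∈ sigmaCore L := by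
  have h1 : Subgroup.zpowers x ≤ sigmaCore L :=
    Cfsg.Agent.Lib.Helper74.BG.le_of_isPiHallOf_of_normal hHall
      (Cfsg.Agent.Lib.Helper67.BG.sigmaCore_normalizer L)
      (by rw [Subgroup.zpowers_le]; exact hxL)
      (fun p hp hdvd => hx p hp (by rwa [Nat.card_zpowers] at hdvd))
  exact h1 (Subgroup.mem_zpowers x)

end

/-- The data attached to a non-identity element `r` of `R(x)`, `x ∈ M_σ^#`. -/
structure RData {G : Type*} [Group G] (M : Subgroup G) (x r : G) (L : Subgroup G) : Prop where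
  hL : IsCoatom L
  hCL : Subgroup.centralizer ({x} : Set G) ≤ L
  huniq : ∀ L' : Subgroup G, IsCoatom L' → Subgroup.centralizer ({x} : Set G) ≤ L' → L' = L
  hcompl : IsComplIn (M ⊓ L) (sigmaCore L) L
  hr : r ∈ sigmaCore L
  hcomm : Commute x r
  hdisj : sigma M ∩ sigma L = ∅

section

variable {G : Type*} [Group G] [Finite G]

/-- An element of `R(x)` is trivial or comes with the data of S1375. -/
theorem supportR_cases (hG : Cfsg.IsMinSimpleOddOrder G)
    (h1350 : type_of% (@Cfsg.CfsgFrozen.S1350 G _ _ hG))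
    (h1375 : type_of% (@Cfsg.CfsgFrozen.S1375 G _ _ hG))
    (h1378 : type_of% (@Cfsg.CfsgFrozen.S1378 G _ _ hG))
    {M : Subgroup G} (hM : IsCoatom M) {x : G} (hx : x ∈ sigmaCore M) (hx1 : x ≠ 1)
    {r : G} (hr : r ∈ supportR M x) : r = 1 ∨ ∃ L : Subgroup G, RData M x r L := by
  unfold supportR at hr
  split_ifs at hr with h
  · right
    obtain ⟨N, ⟨hN, hCN⟩, huniq, hσF, -, -, hcompl, -⟩ := h1375 M hM x hx hx1 h.1
    have hspec := Classical.choose_spec h.2.exists
    have hLN : Classical.choose h.2.exists = N := huniq _ hspec.1 hspec.2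
    rw [hLN, ← hσF] at hr
    obtain ⟨hr1, hr2⟩ := Subgroup.mem_inf.mp hr
    have hxM : x ∈ M := Cfsg.Agent.Lib.Helper67.BG.sigmaCore_le M hx
    have hxN : x ∈ N := hCN (by
      rw [Subgroup.mem_centralizer_iff]
      intro y hy
      rw [Set.mem_singleton_iff] at hy
      rw [hy])
    refine ⟨N, hN, hCN, huniq, hcompl, hr1, ?_, ?_⟩
    · rw [Subgroup.mem_centralizer_iff] at hr2
      exact (hr2 x (Set.mem_singleton x))
    · rw [Set.eq_empty_iff_forall_notMem]
      rintro p ⟨hpM, hpN⟩
      obtain ⟨g, hg⟩ := h1378.2 M N hM hN ⟨p, hpM, hpN⟩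
      have hσ : sigma N = sigma M := by rw [hg, sigma_map_conj]
      have hxσ : x ∈ sigmaCore N :=
        mem_sigmaCore_of_primes (h1350 N hN).1 hxN
          (fun q hq hdvd => hσ ▸ prime_mem_sigma_of_mem_sigmaCore hx hq hdvd)
      have hbot : x ∈ (M ⊓ N) ⊓ sigmaCore N := ⟨⟨hxM, hxN⟩, hxσ⟩
      rw [hcompl.2.2.1] at hbot
      exact hx1 (Subgroup.mem_bot.mp hbot)
  · left
    exact Subgroup.mem_bot.mp hr

theorem RData.coprime {M L : Subgroup G} {x r : G} (d : RData M x r L)
    (hx : x ∈ sigmaCore M) : (orderOf x).Coprime (orderOf r) :=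
  coprime_of_disjoint_primes (fun _ hp hd => prime_mem_sigma_of_mem_sigmaCore hx hp hd)
    (fun _ hp hd => prime_mem_sigma_of_mem_sigmaCore d.hr hp hd) d.hdisj

/-- Statement S1433 from S1350, S1375, S1378. -/
theorem s1433_core (hG : Cfsg.IsMinSimpleOddOrder G)
    (h1350 : type_of% (@Cfsg.CfsgFrozen.S1350 G _ _ hG))
    (h1375 : type_of% (@Cfsg.CfsgFrozen.S1375 G _ _ hG))
    (h1378 : type_of% (@Cfsg.CfsgFrozen.S1378 G _ _ hG)) :
    type_of% (@Cfsg.CfsgFrozen.S1433 G _ _ hG) := by
  intro M N hM hN x y hx hy hx1 hy1 hxy r hr s hs hz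
  have hox : ∀ p : ℕ, p.Prime → p ∣ orderOf x → p ∈ sigma M :=
    fun _ hp hd => prime_mem_sigma_of_mem_sigmaCore hx hp hd
  have hoy : ∀ p : ℕ, p.Prime → p ∣ orderOf y → p ∈ sigma N :=
    fun _ hp hd => prime_mem_sigma_of_mem_sigmaCore hy hp hd
  have hx1' : orderOf x ≠ 1 := fun h => hx1 (orderOf_eq_one_iff.mp h)
  have hy1' : orderOf y ≠ 1 := fun h => hy1 (orderOf_eq_one_iff.mp h)
  -- the sigma sets of conjugate-by-partition subgroups
  have hσeq : ∀ {A B : Subgroup G}, IsCoatom A → IsCoatom B → ∀ p : ℕ, p ∈ sigma A →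
      p ∈ sigma B → sigma B = sigma A := by
    intro A B hA hB p hpA hpB
    obtain ⟨g, hg⟩ := h1378.2 A B hA hB ⟨p, hpA, hpB⟩
    rw [hg, sigma_map_conj]
  rcases supportR_cases hG h1350 h1375 h1378 hM hx hx1 hr with hr1 | ⟨Lx, dx⟩
  · rcases supportR_cases hG h1350 h1375 h1378 hN hy hy1 hs with hs1 | ⟨Ly, dy⟩
    · -- both trivial
      rw [hr1, hs1, mul_one, mul_one] at hz
      exact hxy hz
    · -- r = 1, s ≠ 1 or s = 1
      by_cases hs1 : s = 1
      · rw [hr1, hs1, mul_one, mul_one] at hz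
        exact hxy hz
      rw [hr1, mul_one] at hz
      have hcop := dy.coprime hy
      have hys : y ∈ Subgroup.zpowers x := by
        rw [hz]; exact mem_zpowers_mul_of_coprime dy.hcomm hcop
      have hss : s ∈ Subgroup.zpowers x := by
        rw [hz]; exact mem_zpowers_mul_of_coprime' dy.hcomm hcop
      obtain ⟨p, hp, hpy⟩ := Nat.exists_prime_and_dvd hy1'
      have hpM : p ∈ sigma M := hox p hp (hpy.trans (orderOf_dvd_of_mem_zpowers hys))
      have hσN : sigma N = sigma M := hσeq hM hN p hpM (hoy p hp hpy)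
      have hs1' : orderOf s ≠ 1 := fun h => hs1 (orderOf_eq_one_iff.mp h)
      obtain ⟨p', hp', hps⟩ := Nat.exists_prime_and_dvd hs1'
      have hp'M : p' ∈ sigma M := hox p' hp' (hps.trans (orderOf_dvd_of_mem_zpowers hss))
      have hp'L : p' ∈ sigma Ly := prime_mem_sigma_of_mem_sigmaCore dy.hr hp' hps
      have : p' ∈ sigma N ∩ sigma Ly := ⟨hσN ▸ hp'M, hp'L⟩
      rw [dy.hdisj] at this
      exact this
  · rcases supportR_cases hG h1350 h1375 h1378 hN hy hy1 hs with hs1 | ⟨Ly, dy⟩
    · -- s = 1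
      by_cases hr1 : r = 1
      · rw [hr1, hs1, mul_one, mul_one] at hz
        exact hxy hz
      rw [hs1, mul_one] at hz
      have hcop := dx.coprime hx
      have hxs : x ∈ Subgroup.zpowers y := by
        rw [← hz]; exact mem_zpowers_mul_of_coprime dx.hcomm hcop
      have hrs : r ∈ Subgroup.zpowers y := by
        rw [← hz]; exact mem_zpowers_mul_of_coprime' dx.hcomm hcop
      obtain ⟨p, hp, hpx⟩ := Nat.exists_prime_and_dvd hx1'
      have hpN : p ∈ sigma N := hoy p hp (hpx.trans (orderOf_dvd_of_mem_zpowers hxs))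
      have hσM : sigma M = sigma N := hσeq hN hM p hpN (hox p hp hpx)
      have hr1' : orderOf r ≠ 1 := fun h => hr1 (orderOf_eq_one_iff.mp h)
      obtain ⟨p', hp', hpr⟩ := Nat.exists_prime_and_dvd hr1'
      have hp'N : p' ∈ sigma N := hoy p' hp' (hpr.trans (orderOf_dvd_of_mem_zpowers hrs))
      have hp'L : p' ∈ sigma Lx := prime_mem_sigma_of_mem_sigmaCore dx.hr hp' hpr
      have : p' ∈ sigma M ∩ sigma Lx := ⟨hσM ▸ hp'N, hp'L⟩
      rw [dx.hdisj] at this
      exact this
    · -- both sides carry data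
      have hcopx := dx.coprime hx
      have hcopy := dy.coprime hy
      have hor : ∀ p : ℕ, p.Prime → p ∣ orderOf r → p ∈ sigma Lx :=
        fun _ hp hd => prime_mem_sigma_of_mem_sigmaCore dx.hr hp hd
      have hos : ∀ p : ℕ, p.Prime → p ∣ orderOf s → p ∈ sigma Ly :=
        fun _ hp hd => prime_mem_sigma_of_mem_sigmaCore dy.hr hp hd
      -- all four elements are powers of z = x * r
      have hxz : x ∈ Subgroup.zpowers (x * r) := mem_zpowers_mul_of_coprime dx.hcomm hcopx
      have hrz : r ∈ Subgroup.zpowers (x * r) := mem_zpowers_mul_of_coprime' dx.hcomm hcopx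
      have hyz : y ∈ Subgroup.zpowers (x * r) := by
        rw [hz]; exact mem_zpowers_mul_of_coprime dy.hcomm hcopy
      have hsz : s ∈ Subgroup.zpowers (x * r) := by
        rw [hz]; exact mem_zpowers_mul_of_coprime' dy.hcomm hcopy
      have hcomm : ∀ {a b : G}, a ∈ Subgroup.zpowers (x * r) → b ∈ Subgroup.zpowers (x * r) →
          Commute a b := by
        intro a b ha hb
        obtain ⟨i, rfl⟩ := Subgroup.mem_zpowers_iff.mp ha
        obtain ⟨j, rfl⟩ := Subgroup.mem_zpowers_iff.mp hb
        exact (Commute.refl (x * r)).zpow_zpow i j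
      have hozx : orderOf (x * r) = orderOf x * orderOf r :=
        dx.hcomm.orderOf_mul_eq_mul_orderOf_of_coprime hcopx
      have hozy : orderOf (x * r) = orderOf y * orderOf s := by
        rw [hz]; exact dy.hcomm.orderOf_mul_eq_mul_orderOf_of_coprime hcopy
      by_cases hcommon : ∃ p : ℕ, p.Prime ∧ p ∣ orderOf x ∧ p ∣ orderOf y
      · -- a common prime: `N` is conjugate to `M`, and `x = y`
        obtain ⟨p, hp, hpx, hpy⟩ := hcommon
        have hσN : sigma N = sigma M := hσeq hM hN p (hox p hp hpx) (hoy p hp hpy)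
        apply hxy
        have hw : x⁻¹ * y = r * s⁻¹ := by
          have h1 : y = x * r * s⁻¹ := by rw [hz]; group
          rw [h1]; group
        have hw1 : x⁻¹ * y = 1 := by
          apply eq_one_of_disjoint_primes (A := sigma M) (B := sigma Lx ∪ sigma Ly)
          · intro q hq hd
            rcases prime_dvd_orderOf_inv_mul (hcomm hxz hyz) hq hd with h1 | h1
            · exact hox q hq h1
            · exact hσN ▸ hoy q hq h1
          · intro q hq hd
            rw [hw] at hd
            rcases prime_dvd_orderOf_mul_inv (hcomm hrz hsz) hq hd with h1 | h1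
            · exact Or.inl (hor q hq h1)
            · exact Or.inr (hos q hq h1)
          · rw [Set.inter_union_distrib_left, dx.hdisj, ← hσN, dy.hdisj, Set.union_empty]
        calc x = x * (x⁻¹ * y) := by rw [hw1, mul_one]
          _ = y := by group
      · -- no common prime: the mutual configuration
        push Not at hcommon
        obtain ⟨p, hp, hpx⟩ := Nat.exists_prime_and_dvd hx1'
        have hps : p ∣ orderOf s := by
          have h1 : p ∣ orderOf y * orderOf s := by
            rw [← hozy, hozx]; exact Dvd.dvd.mul_right hpx _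
          rcases (Nat.Prime.dvd_mul hp).mp h1 with h2 | h2
          · exact absurd h2 (hcommon p hp hpx)
          · exact h2
        obtain ⟨p', hp', hpy⟩ := Nat.exists_prime_and_dvd hy1'
        have hpr : p' ∣ orderOf r := by
          have h1 : p' ∣ orderOf x * orderOf r := by
            rw [← hozx, hozy]; exact Dvd.dvd.mul_right hpy _
          rcases (Nat.Prime.dvd_mul hp').mp h1 with h2 | h2
          · exact absurd hpy (hcommon p' hp' h2)
          · exact h2
        have hσLy : sigma Ly = sigma M := hσeq hM dy.hL p (hox p hp hpx) (hos p hp hps)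
        have hσLx : sigma Lx = sigma N := hσeq hN dx.hL p' (hoy p' hp' hpy) (hor p' hp' hpr)
        have hMN : sigma M ∩ sigma N = ∅ := by rw [← hσLx]; exact dx.hdisj
        -- `x⁻¹ * s = r * y⁻¹` is trivial
        have hw : x⁻¹ * s = r * y⁻¹ := by
          have h1 : s = y⁻¹ * (x * r) := by rw [hz]; group
          have h2 : Commute y⁻¹ (x * r) :=
            (hcomm hyz (Subgroup.mem_zpowers (x * r))).inv_left
          have h3 : Commute y⁻¹ r := (hcomm hyz hrz).inv_left
          rw [h1, ← mul_assoc, ← mul_assoc]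
          have h4 : x⁻¹ * y⁻¹ * x * r = y⁻¹ * r := by
            have h5 : Commute x⁻¹ y⁻¹ := (hcomm hxz hyz).inv_left.inv_right
            rw [h5.eq]; group
          rw [h4, h3.eq]
        have hw1 : x⁻¹ * s = 1 := by
          apply eq_one_of_disjoint_primes (A := sigma M) (B := sigma N)
          · intro q hq hd
            rcases prime_dvd_orderOf_inv_mul (hcomm hxz hsz) hq hd with h1 | h1
            · exact hox q hq h1
            · exact hσLy ▸ hos q hq h1
          · intro q hq hd
            rw [hw] at hd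
            rcases prime_dvd_orderOf_mul_inv (hcomm hrz hyz) hq hd with h1 | h1
            · exact hσLx ▸ hor q hq h1
            · exact hoy q hq h1
          · exact hMN
        have hsx : s = x := by
          calc s = x * (x⁻¹ * s) := by group
            _ = x := by rw [hw1, mul_one]
        have hry : r = y := by
          have h1 : r * y⁻¹ = 1 := by rw [← hw, hw1]
          calc r = r * y⁻¹ * y := by group
            _ = y := by rw [h1, one_mul]
        -- now `x ∈ (Ly)_σ` and `y ∈ (Lx)_σ`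
        have hxLy : x ∈ sigmaCore Ly := hsx ▸ dy.hr
        have hyLx : y ∈ sigmaCore Lx := hry ▸ dx.hr
        have hLne : Ly ≠ Lx := by
          intro h
          have h1 : p ∈ sigma M ∩ sigma N := ⟨hox p hp hpx, by rw [← hσLx, ← h, hσLy]; exact hox p hp hpx⟩
          rw [hMN] at h1
          exact h1
        have hCx : ¬ Subgroup.centralizer ({x} : Set G) ≤ Ly := fun h =>
          hLne (dx.huniq Ly dy.hL h)
        obtain ⟨N', ⟨hN', hCN'⟩, -, -, -, -, hcompl', -⟩ := h1375 Ly dy.hL x hxLy hx1 hCx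
        have hN'Lx : N' = Lx := dx.huniq N' hN' hCN'
        rw [hN'Lx] at hcompl'
        have hyLy : y ∈ Ly := dy.hCL (by
          rw [Subgroup.mem_centralizer_iff]
          intro t ht
          rw [Set.mem_singleton_iff] at ht
          rw [ht])
        have hyLx' : y ∈ Lx := Cfsg.Agent.Lib.Helper67.BG.sigmaCore_le Lx hyLx
        have hbot : y ∈ (Ly ⊓ Lx) ⊓ sigmaCore Lx := ⟨⟨hyLy, hyLx'⟩, hyLx⟩
        rw [hcompl'.2.2.1] at hbot
        exact hy1 (Subgroup.mem_bot.mp hbot)

end

end Cfsg.Agent.Lib.Helper27.BG
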